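import Cfsg.Agent.Lib.Geometric.UnitaryMonomial.FixedLine

/-!
An overgroup of the monomial group in dimension eight: zeros in columns, and diagonal elements
producing zeros.
-/

set_option autoImplicit false

namespace CfsgLib.SUEight

open CfsgLib.Geometric CfsgLib.UMon Finset Matrix

variable {ι : Type} [Fintype ι] [DecidableEq ι] {F : Type*} [Field F] [Fintype F] [DecidableEq F]
variable {σ : F ≃+* F} {q : ℕ}

local notation "e[" j "]" => (Pi.single j (1 : _) : ι → _)

section Steps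

variable {X : Subgroup (GL ι F)} (hσ : IsConj σ q) (hn : 8 ≤ Fintype.card ι)
  (hX : X ≤ GUs σ) (hM : MonIn σ X)
include hσ hn hX hM

/-- Without fixed lines no column of a non-monomial element has two zeros. -/
lemma noTwoZeros (hN : ¬ FixLine X) : NoTwoZeros X := by
  intro g hg hgn j a b hab ha hb
  obtain ⟨S, hS, hS0⟩ := pair_support hσ hM hN hg hab ha hb
  set f : ι → Finset ι := fun c => univ.filter fun i => ap g e[c] i ≠ 0 with hf
  have hf2 : ∀ c, 2 ≤ (f c).card := fun c => by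
    by_contra h
    exact hN (fixLine_of_col hM hg hgn (j := c) (by change (f c).card ≤ 1; omega))
  have hpair : ∀ c ∈ Sᶜ, ∀ d ∈ Sᶜ, c ≠ d → (f c ∪ f d).card ≤ 3 := by
    intro c hc d hd hcd
    obtain ⟨T, hT, hT0⟩ := pair_support hσ hM hN (inv_mem hg) hcd (hS0 c (mem_compl.mp hc)).1
      (hS0 d (mem_compl.mp hd)).1
    rw [inv_inv] at hT0
    refine le_trans (card_le_card fun i hi => by_contra fun hiT => ?_) hT
    simp only [hf, mem_union, mem_filter, mem_univ, true_and] at hi
    rcases hi with h | h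
    exacts [h (hT0 i hiT).1, h (hT0 i hiT).2]
  have horth : ∀ c d, c ≠ d → (f c ∩ f d).card ≠ 1 := by
    intro c d hcd h1
    obtain ⟨t, ht⟩ := card_eq_one.mp h1
    have h := hb_ap (hX hg) (e[c] : ι → F) (e[d] : ι → F)
    rw [CfsgLib.UMon.hb, Finset.sum_eq_single t ?_ (by simp)] at h
    · rw [hb_single_left, Pi.single_eq_of_ne hcd, map_zero, mul_zero] at h
      have htm : t ∈ f c ∩ f d := by rw [ht]; simp
      simp only [hf, mem_inter, mem_filter, mem_univ, true_and] at htm
      exact mul_ne_zero htm.1 ((map_ne_zero σ).mpr htm.2) h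
    · intro i _ hi
      by_contra h0
      obtain ⟨h0', h0''⟩ := mul_ne_zero_iff.mp h0
      have : i ∈ f c ∩ f d := by simp [hf, h0', (map_ne_zero σ).mp h0'']
      rw [ht, mem_singleton] at this
      exact hi this
  obtain ⟨Z, hZ, hZ4⟩ := exists_subset_card_eq (s := Sᶜ) (n := 4) (by rw [card_compl]; omega)
  obtain ⟨T, hT, hTZ⟩ : ∃ T : Finset ι, T.card ≤ 3 ∧ ∀ c ∈ Z, f c ⊆ T := by
    by_cases h3 : ∃ c₀ ∈ Z, 3 ≤ (f c₀).card
    · obtain ⟨c₀, hc₀, h3⟩ := h3
      obtain ⟨c₁, hc₁, hne⟩ := exists_mem_ne (show 1 < Z.card by omega) c₀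
      refine ⟨f c₀, le_trans (card_le_card subset_union_left)
        (hpair c₀ (hZ hc₀) c₁ (hZ hc₁) hne.symm), fun c hc => ?_⟩
      by_cases hcc : c = c₀
      · rw [hcc]
      have h := hpair c₀ (hZ hc₀) c (hZ hc) (Ne.symm hcc)
      have he : f c₀ = f c₀ ∪ f c := eq_of_subset_of_card_le subset_union_left (by omega)
      rw [he]; exact subset_union_right
    · push Not at h3
      obtain ⟨c₀, hc₀⟩ := card_pos.mp (show 0 < Z.card by omega)
      refine ⟨f c₀, (h3 c₀ hc₀).le, fun c hc => ?_⟩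
      by_cases hcc : c = c₀
      · rw [hcc]
      have h := hpair c₀ (hZ hc₀) c (hZ hc) (Ne.symm hcc)
      have h' := card_union_add_card_inter (f c₀) (f c)
      have := h3 c₀ hc₀
      have := h3 c hc
      have := hf2 c₀
      have := hf2 c
      have := horth c₀ c (Ne.symm hcc)
      have he : f c₀ ∩ f c = f c := eq_of_subset_of_card_le inter_subset_right (by omega)
      rw [← he]; exact inter_subset_left
  have := card_le_of_supp (g := g) (Z := Z) (T := T) fun c hc i hi =>
    by_contra fun h0 => hi (hTZ c hc (by simp [hf, h0]))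
  omega

omit hn hσ hX hM in
/-- Powers of the diagonal element on few coordinates keep a conjugate from being monomial. -/
lemma not_isMon_conj {g : GL ι F} (hn : 8 ≤ Fintype.card ι) (h0 : ∀ j a, ap g e[j] a ≠ 0)
    {d : ι → F} (hd : ∀ i, d i ∈ cir σ) (m : ℕ) {C : Finset ι} (hC : C.card ≤ 3)
    (hdC : ∀ i, i ∉ C → d i ^ m = 1) (hdm : ∃ i, d i ^ m ≠ 1) :
    ¬ IsMon (g⁻¹ * dia d * g) := by
  intro h
  have hd0 := fun i => ne_zero_of_mem_cir (hd i)
  have hd0' : ∀ k i, d i ^ k ≠ 0 := fun k i => pow_ne_zero _ (hd0 i)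
  have hpow : ∀ k : ℕ, IsMon (g⁻¹ * dia (fun i => d i ^ k) * g) := by
    intro k
    induction k with
    | zero =>
      refine isMon_of_cols id fun j i hi => ?_
      rw [show dia (fun i => d i ^ 0) = (1 : GL ι F) from gl_ext fun x => funext fun i => by
        rw [ap_dia (hd0' 0), ap_one, pow_zero, one_mul]]
      simp [show i ≠ j from hi]
    | succ k ih =>
      convert ih.mul h using 1
      have e : dia (fun i => d i ^ (k + 1)) = dia (fun i => d i ^ k) * dia d :=
        gl_ext fun x => funext fun i => by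
          rw [ap_mul, ap_dia (hd0' (k + 1)), ap_dia (hd0' k), ap_dia hd0, pow_succ, mul_assoc]
      rw [e]; group
  obtain ⟨π, c, hπc⟩ := hpow m
  have hfix : ∀ x : ι → F, (∀ l ∈ C, x l = 0) → ap (dia fun i => d i ^ m) x = x := fun x hx => by
    funext i
    rw [ap_dia (hd0' m)]
    by_cases hi : i ∈ C
    · rw [hx i hi, mul_zero]
    · rw [hdC i hi, one_mul]
  have h1 := card_fixed_mon (π := π) (c := c) (r := C.card)
    (by rw [← hπc]; exact card_le_fixSpace_conj hfix)
    (s := univ.filter fun m => ap (mon π c) e[m] = (e[m] : ι → F)) (fun m hm => by simp [hm])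
  obtain ⟨l, hl⟩ := card_pos.mp (show 0 <
    (univ.filter fun m => ap (mon π c) e[m] = (e[m] : ι → F)).card by omega)
  simp only [mem_filter, mem_univ, true_and] at hl
  obtain ⟨i, hi⟩ := hdm
  have hgl : ap (dia fun i => d i ^ m) (ap g e[l]) = ap g e[l] := by
    conv_rhs => rw [← hl, ← hπc, ap_mul, ap_mul, ap_ap_inv]
  have e1 := congrFun hgl i
  rw [ap_dia (hd0' m)] at e1
  exact hi (mul_right_cancel₀ (h0 l i) (e1.trans (one_mul _).symm))

omit hσ in
/-- Four coordinates weighted to keep the product of two columns perpendicular give a zero. -/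
lemma zero_of_four {g : GL ι F} (hg : g ∈ X) (h0 : ∀ j a, ap g e[j] a ≠ 0) {j k : ι}
    (hjk : j ≠ k) {l : Fin 4 → ι} (hl : Function.Injective l) {w : Fin 4 → F}
    (hw : ∀ i, w i ∈ cir σ) (hp : ∏ i, w i = 1)
    (hs : ∑ i, ap g e[j] (l i) * σ (ap g e[k] (l i)) * (w i - 1) = 0)
    (m : ℕ) (hm : ∃ i, w i ^ m ≠ 1) (hm' : ∃ i, w i ^ m = 1) :
    ∃ g' ∈ X, ¬ IsMon g' ∧ ∃ j a, ap g' e[j] a = 0 := by
  set d : ι → F := Function.extend l w fun _ => 1 with hd
  have hdl : ∀ i, d (l i) = w i := fun i => hl.extend_apply _ _ _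
  have hdo : ∀ x, x ∉ univ.map ⟨l, hl⟩ → d x = 1 := fun x hx =>
    Function.extend_apply' _ _ _ fun ⟨i, hi⟩ => hx (by simp [← hi])
  have hdc : ∀ x, d x ∈ cir σ := fun x => by
    by_cases hx : ∃ i, l i = x
    · obtain ⟨i, rfl⟩ := hx; rw [hdl]; exact hw i
    · rw [hdo x fun h => hx (by simpa using h)]; exact one_mem_cir
  have hdp : ∏ x, d x = 1 := by
    rw [← Finset.prod_subset (subset_univ (univ.map ⟨l, hl⟩)) fun x _ hx => hdo x hx, prod_map]
    simpa [hdl] using hp
  set a : ι → F := fun x => ap g e[j] x * σ (ap g e[k] x) with ha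
  have hperp : ∑ x, a x = 0 := by
    have := hb_ap (hX hg) (e[j] : ι → F) (e[k] : ι → F)
    rwa [hb_single_left, Pi.single_eq_of_ne hjk, map_zero, mul_zero] at this
  have hsum : ∑ x, a x * d x = 0 := by
    rw [show ∑ x, a x * d x = ∑ x, a x * (d x - 1) + ∑ x, a x by
      rw [← sum_add_distrib]; exact sum_congr rfl fun x _ => by ring, hperp, add_zero,
      ← Finset.sum_subset (subset_univ (univ.map ⟨l, hl⟩)) fun x _ hx => by
        rw [hdo x hx, sub_self, mul_zero], sum_map]
    simpa [hdl, ha] using hs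
  obtain ⟨i₁, hi₁⟩ := hm
  obtain ⟨i₀, hi₀⟩ := hm'
  refine ⟨g⁻¹ * dia d * g, mul_mem (mul_mem (inv_mem hg) (dia_mem hM hdc hdp)) hg,
    not_isMon_conj hn h0 hdc m (C := (univ.erase i₀).map ⟨l, hl⟩)
      (by rw [card_map, card_erase_of_mem (mem_univ _)]; simp) (fun x hx => ?_)
      ⟨l i₁, by rwa [hdl]⟩, j, k, ?_⟩
  · by_cases h : ∃ i, l i = x
    · obtain ⟨i, rfl⟩ := h
      have : i = i₀ := by
        by_contra hne
        exact hx (mem_map.mpr ⟨i, by simp [hne], rfl⟩)
      rw [hdl, this, hi₀]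
    · rw [hdo x fun h' => h (by simpa using h'), one_pow]
  · have e1 := hb_single_right (σ := σ) (ap (g⁻¹ * dia d * g) e[j]) k 1
    rw [map_one, mul_one, ap_mul, ap_mul, hb_ap_left (inv_mem (hX hg)), inv_inv] at e1
    rw [ap_mul, ap_mul, ← e1, hb, ← hsum]
    refine Finset.sum_congr rfl fun x _ => ?_
    rw [ap_dia fun i => ne_zero_of_mem_cir (hdc i), ha]
    ring

omit hσ in
/-- Two different values with the same norm give a zero. -/
lemma zero_of_pair {g : GL ι F} (hg : g ∈ X) (h0 : ∀ j a, ap g e[j] a ≠ 0) {j k : ι}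
    (hjk : j ≠ k) {x y : ι}
    (hne : ap g e[j] x * σ (ap g e[k] x) ≠ ap g e[j] y * σ (ap g e[k] y))
    (he : ap g e[j] x * σ (ap g e[k] x) * σ (ap g e[j] x * σ (ap g e[k] x)) =
      ap g e[j] y * σ (ap g e[k] y) * σ (ap g e[j] y * σ (ap g e[k] y))) :
    ∃ g' ∈ X, ¬ IsMon g' ∧ ∃ j a, ap g' e[j] a = 0 := by
  set A := ap g e[j] x * σ (ap g e[k] x) with hA
  set B := ap g e[j] y * σ (ap g e[k] y) with hB
  have hA0 : A ≠ 0 := mul_ne_zero (h0 j x) ((map_ne_zero σ).mpr (h0 k x))
  have hB0 : B ≠ 0 := mul_ne_zero (h0 j y) ((map_ne_zero σ).mpr (h0 k y))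
  have hc : B / A ∈ cir σ := by
    rw [mem_cir, map_div₀, div_mul_div_comm, he]
    exact div_self (mul_ne_zero hB0 ((map_ne_zero σ).mpr hB0))
  have hxy : x ≠ y := fun h => hne (by rw [hA, hB, h])
  obtain ⟨s, hs, hs2⟩ := exists_subset_card_eq (s := ({x, y} : Finset ι)ᶜ) (n := 2) (by
    have := card_le_two (a := x) (b := y); rw [card_compl]; omega)
  obtain ⟨u, v, huv, rfl⟩ := card_eq_two.mp hs2
  have hu := hs (show u ∈ ({u, v} : Finset ι) by simp)
  have hv := hs (show v ∈ ({u, v} : Finset ι) by simp)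
  simp at hu hv
  have hinj : Function.Injective ![x, y, u, v] := by
    intro a b
    fin_cases a <;> fin_cases b <;>
      simp [hxy, hxy.symm, huv, huv.symm, hu.1, hu.2, hv.1, hv.2, Ne.symm hu.1, Ne.symm hu.2,
        Ne.symm hv.1, Ne.symm hv.2]
  refine zero_of_four hn hX hM hg h0 hjk hinj (w := ![B / A, (B / A)⁻¹, 1, 1]) ?_ ?_ ?_ 1
    ⟨0, ?_⟩ ⟨2, by simp⟩
  · intro i; fin_cases i <;> simp only [] <;>
      first | exact hc | exact inv_mem_cir hc | exact one_mem_cir
  · simp [Fin.prod_univ_four, hA0, hB0]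
  · simp [Fin.sum_univ_four]
    rw [← hA, ← hB]
    field_simp
    ring
  · simp
    intro h
    exact hne ((div_eq_one_iff_eq hA0).mp h).symm

omit hσ in
/-- Four equal values over the field with nine elements. -/
lemma zero_of_three {g : GL ι F} (hσ : IsConj σ q) (h3 : q = 3) (hg : g ∈ X)
    (h0 : ∀ j a, ap g e[j] a ≠ 0) {j k : ι} (hjk : j ≠ k) :
    ∃ g' ∈ X, ¬ IsMon g' ∧ ∃ j a, ap g' e[j] a = 0 := by
  set a : ι → F := fun x => ap g e[j] x * σ (ap g e[k] x) with ha
  by_contra hcon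
  have ha0 : ∀ x, a x ≠ 0 := fun x => mul_ne_zero (h0 j x) ((map_ne_zero σ).mpr (h0 k x))
  have hclass : ∀ x y, a x * σ (a x) = a y * σ (a y) → a x = a y := fun x y he =>
    by_contra fun hne => hcon (zero_of_pair hn hX hM hg h0 hjk hne he)
  have hcard : ((fxd σ).erase 0).card = 2 := by
    rw [card_erase_of_mem (by simp [fxd]), card_fxd hσ, h3]
  obtain ⟨b, -, hb4⟩ := exists_le_card_fiber_of_mul_le_card_of_maps_to (s := (univ : Finset ι))
    (t := (fxd σ).erase 0) (f := fun x => a x * σ (a x)) (n := 4)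
    (fun x _ => by simp [fxd, hσ.invol, mul_comm, ha0 x]) (card_pos.mp (by omega))
    (by rw [hcard, card_univ]; omega)
  obtain ⟨Q, hQ, hQ4⟩ := exists_subset_card_eq hb4
  let eQ := Q.equivFinOfCardEq hQ4
  let l : Fin 4 → ι := fun i => (eQ.symm i : ι)
  have hl : Function.Injective l := fun i i' h => eQ.symm.injective (Subtype.ext h)
  have hla : ∀ i, a (l i) = a (l 0) := fun i => hclass _ _ (by
    have h1 := hQ (eQ.symm i).2
    have h2 := hQ (eQ.symm 0).2
    simp only [mem_filter, mem_univ, true_and] at h1 h2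
    exact h1.trans h2.symm)
  obtain ⟨c, hc, hc2⟩ := exists_sq_ne_one hσ
  have h4 : c ^ 4 = 1 := by have := pow_card_cir hσ hc; rwa [h3] at this
  have hm1 : c ^ 2 = -1 :=
    (sq_eq_one_iff.mp (show (c ^ 2) ^ 2 = 1 by linear_combination h4)).resolve_left hc2
  have h30 : (3 : F) = 0 := by
    have h9 := FiniteField.cast_card_eq_zero F
    rw [hσ.card, h3] at h9
    push_cast at h9
    exact mul_self_eq_zero.mp (show (3 : F) * 3 = 0 by linear_combination h9)
  refine hcon (zero_of_four hn hX hM hg h0 hjk hl (w := ![c, c ^ 3, c ^ 2, c ^ 2]) ?_ ?_ ?_ 2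
    ⟨0, by simpa using hc2⟩ ⟨2, show (c ^ 2) ^ 2 = 1 by linear_combination h4⟩)
  · intro i; fin_cases i <;>
      first | exact hc | exact pow_mem_cir hc _
  · simp [Fin.prod_univ_four]
    linear_combination (c ^ 4 + 1) * h4
  · change ∑ i, a (l i) * _ = 0
    simp only [hla, ← mul_sum]
    simp [Fin.sum_univ_four]
    right
    linear_combination (c + 2) * hm1 - (2 : F) * h30

variable (hZ : NoTwoZeros X)
include hZ

/-- Two equal norms off a zero, in odd characteristic. -/
lemma false_of_odd (hN : ¬ FixLine X) (hq : ¬ Even q) {g : GL ι F} (hg : g ∈ X) (hgn : ¬ IsMon g)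
    {j a : ι} (hja : ap g e[j] a = 0) {p p' : ι} (hpj : p ≠ j) (hpj' : p' ≠ j) (hpp : p ≠ p')
    (he : ap g⁻¹ e[a] p * σ (ap g⁻¹ e[a] p) = ap g⁻¹ e[a] p' * σ (ap g⁻¹ e[a] p')) :
    False := by
  obtain ⟨hu0, hu⟩ := UMon.inv_col hX hZ hg hgn hja
  set u := ap g⁻¹ e[a] with hudef
  set e : ι → F := Function.update 1 j (-1) with hedef
  have hec : ∀ i, e i ∈ cir σ := fun i => by
    by_cases hi : i = j
    · subst hi; simpa [hedef] using neg_mem_cir (σ := σ) one_mem_cir
    · simp [hedef, hi, one_mem_cir]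
  obtain ⟨d, hdc, -, -, hdo, hwu, hprod⟩ := swap_data hpp (hu p hpj) (hu p' hpj') he hec
    fun i _ _ => by
      by_cases hi : i = j
      · subst hi; rw [hu0, mul_zero]
      · simp [hedef, hi]
  set w := mo (Equiv.swap p p') d with hw
  have hwX : w ∈ X := mo_mem hM hdc (by
    rw [hprod (by simp [hedef, hpj]) (by simp [hedef, hpj']), hedef,
      Finset.prod_update_of_mem (mem_univ j), Equiv.Perm.sign_swap hpp]
    simp)
  set h := g * w * g⁻¹ with hhdef
  have hha : ap h e[a] = (1 : F) • e[a] := by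
    rw [hhdef, ap_mul, ap_mul, ← hudef, hwu, hudef, ap_ap_inv, one_smul]
  obtain ⟨π, c, hπc⟩ : IsMon h :=
    by_contra fun hh => hN ⟨h, mul_mem (mul_mem hg hwX) (inv_mem hg), hh, a, 1, hha⟩
  have hwfix : ∀ x : ι → F, (∀ l ∈ ({p, p', j} : Finset ι), x l = 0) → ap w x = x := by
    intro x hx
    funext i
    rw [hw, ap_mo fun i => ne_zero_of_mem_cir (hdc i), Equiv.symm_swap]
    by_cases h1 : i = p
    · subst h1; rw [Equiv.swap_apply_left, hx p' (by simp), hx i (by simp), mul_zero]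
    by_cases h2 : i = p'
    · subst h2; rw [Equiv.swap_apply_right, hx p (by simp), hx i (by simp), mul_zero]
    rw [Equiv.swap_apply_of_ne_of_ne h1 h2, hdo i h1 h2]
    by_cases h3 : i = j
    · subst h3; rw [hx i (by simp), mul_zero]
    · simp [hedef, h3]
  have hcard := card_fixed_mon (π := π) (c := c) (r := 3)
    (by
      rw [← hπc, hhdef]
      have := card_le_fixSpace_conj (g := g⁻¹) hwfix
      rw [inv_inv] at this
      exact this.trans (Nat.add_le_add_left card_le_three _))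
    (s := univ.filter fun m => ap (mon π c) e[m] = (e[m] : ι → F)) (fun m hm => by simp [hm])
  have hzero : ∀ m ∈ univ.filter fun m => ap (mon π c) e[m] = (e[m] : ι → F),
      ap g e[j] m = 0 := by
    intro m hm
    simp only [mem_filter, mem_univ, true_and] at hm
    have h1 : ap w (ap g⁻¹ e[m]) = ap g⁻¹ e[m] := by
      conv_rhs => rw [← hm, ← hπc, hhdef, ap_mul, ap_mul, ap_inv_ap]
    have h2 := congrFun h1 j
    rw [hw, ap_mo fun i => ne_zero_of_mem_cir (hdc i), Equiv.symm_swap,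
      Equiv.swap_apply_of_ne_of_ne (Ne.symm hpj) (Ne.symm hpj'), hdo j (Ne.symm hpj) (Ne.symm hpj'),
      hedef, Function.update_self] at h2
    have h3 : (2 : F) * ap g⁻¹ e[m] j = 0 := by linear_combination -h2
    have htwo : (2 : F) ≠ 0 := by
      intro h
      have hev := FiniteField.even_card_of_char_two (F := F) (ringChar.eq_iff.mpr
        (CharP.charP_iff_prime_eq_zero Nat.prime_two |>.mpr (by exact_mod_cast h)))
      rw [hσ.card] at hev
      exact hq ((Nat.even_pow.mp (Nat.even_iff.mpr hev)).1)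
    have h4 := (mul_eq_zero.mp h3).resolve_left htwo
    rw [ap_inv_entry (hX hg)] at h4
    exact (map_eq_zero σ).mp h4
  obtain ⟨m, hm, m', hm', hne⟩ := one_lt_card.mp (show 1 <
    (univ.filter fun m => ap (mon π c) e[m] = (e[m] : ι → F)).card by omega)
  exact hZ g hg hgn j m m' hne (hzero m hm) (hzero m' hm')

end Steps

end CfsgLib.SUEight
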