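import Cfsg.Agent.Lib.Geometric.SUEight.Columns

/-!
The field with forty-nine elements as pairs over the prime field, and the weights that let a
diagonal element produce a zero in dimension eight over it.
-/

set_option autoImplicit false

namespace CfsgLib.SUEight

open CfsgLib.Geometric CfsgLib.UMon Finset Matrix

/-- A residue as an element of the prime field. -/
def asZ (v : Fin 7) : ZMod 7 := v

/-- Multiplication of `x + y c` where `c ^ 2 = 4 c - 1`. -/
def mm (x y : ZMod 7 × ZMod 7) : ZMod 7 × ZMod 7 :=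
  (x.1 * y.1 - x.2 * y.2, x.1 * y.2 + x.2 * y.1 + 4 * (x.2 * y.2))

/-- The powers of `c` less one. -/
def pm : Fin 8 → ZMod 7 × ZMod 7 :=
  ![(0, 0), (6, 1), (5, 4), (2, 1), (5, 0), (6, 6), (0, 3), (3, 6)]

/-- The norm of `x + y c`. -/
def nm (x : ZMod 7 × ZMod 7) : ZMod 7 := x.1 * x.1 + 4 * (x.1 * x.2) + x.2 * x.2

/-- Some power has at least one trivial and one non-trivial weight. -/
def mixed (a b c d : Fin 8) : Bool :=
  [1, 2, 4].any fun m : Fin 8 =>
    ([a, b, c, d].any fun k => decide (k * m ≠ 0)) && ([a, b, c, d].any fun k => decide (k * m = 0))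

lemma exists_weight_pair : ∀ x y : ZMod 7, nm (x, y) = 5 → ∃ a b : Fin 8,
    pm a + pm b + mm (x, y) (pm (-(a + b))) = (0, 0) ∧ mixed a b (-(a + b)) 0 = true := by
  decide +kernel

lemma exists_weight_triple : ∀ x y : ZMod 7, nm (x, y) = 2 ∨ nm (x, y) = 5 ∨ nm (x, y) = 6 →
    ∃ a b c : Fin 8, pm a + pm b + pm c + mm (x, y) (pm (-(a + b + c))) = (0, 0) ∧
      mixed a b c (-(a + b + c)) = true := by
  decide +kernel

/-- Fibre sizes admitting one of the two patterns. -/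
lemma exists_pattern : ∀ a b c d e f : Fin 4, (a : ℕ) + b + c + d + e + f = 8 →
    ∃ v : Fin 7, v ≠ 0 ∧
      ((2 ≤ (![0, a, b, c, d, e, f] v : ℕ) ∧ 1 ≤ (![0, a, b, c, d, e, f] (5 * v) : ℕ)) ∨
       (3 ≤ (![0, a, b, c, d, e, f] v : ℕ) ∧ ∃ ν : Fin 7, (ν = 2 ∨ ν = 5 ∨ ν = 6) ∧
        1 ≤ (![0, a, b, c, d, e, f] (ν * v) : ℕ))) := by
  decide +kernel

variable {ι : Type} [Fintype ι] [DecidableEq ι] {F : Type*} [Field F] [Fintype F] [DecidableEq F]
variable {σ : F ≃+* F} {q : ℕ}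

local notation "e[" j "]" => (Pi.single j (1 : _) : ι → _)

/-- Coordinates of the field with forty-nine elements. -/
lemma exists_coordinates (hσ : IsConj σ q) (h7 : q = 7) :
    ∃ (φ : ZMod 7 →+* F) (c : F), c ∈ cir σ ∧ orderOf c = 8 ∧
      (∀ a, ∃ x : ZMod 7 × ZMod 7, φ x.1 + φ x.2 * c = a) ∧
      (∀ x y : ZMod 7 × ZMod 7, φ (mm x y).1 + φ (mm x y).2 * c =
        (φ x.1 + φ x.2 * c) * (φ y.1 + φ y.2 * c)) ∧
      (∀ x : ZMod 7 × ZMod 7, (φ x.1 + φ x.2 * c) * σ (φ x.1 + φ x.2 * c) = φ (nm x)) ∧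
      (∀ k : Fin 8, φ (pm k).1 + φ (pm k).2 * c = c ^ (k : ℕ) - 1) := by
  have : Fact (Nat.Prime 7) := ⟨by norm_num⟩
  have h70 : (7 : F) = 0 := by
    have h9 := FiniteField.cast_card_eq_zero F
    rw [hσ.card, h7] at h9
    push_cast at h9
    exact mul_self_eq_zero.mp (show (7 : F) * 7 = 0 by linear_combination h9)
  have : CharP F 7 := (CharP.charP_iff_prime_eq_zero (by norm_num)).mpr (by exact_mod_cast h70)
  set φ : ZMod 7 →+* F := ZMod.castHom dvd_rfl F
  have hφσ : ∀ x, σ (φ x) = φ x := fun x =>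
    RingHom.congr_fun (Subsingleton.elim ((σ : F →+* F).comp φ) φ) x
  obtain ⟨c₀, hc₀, ho⟩ : ∃ c ∈ cir σ, orderOf c = 8 := by
    obtain ⟨u, hu⟩ := IsCyclic.exists_ofOrder_eq_natCard (α := Fˣ)
    rw [hσ.card_units, h7] at hu
    have ho : orderOf ((u : F) ^ 6) = 8 := by
      rw [orderOf_pow_of_dvd (by norm_num) (by rw [orderOf_units, hu]; norm_num),
        orderOf_units, hu]
    refine ⟨_, ?_, ho⟩
    rw [mem_cir, hσ.pow, ← pow_succ', h7, show 7 + 1 = orderOf ((u : F) ^ 6) from ho.symm]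
    exact pow_orderOf_eq_one _
  have h4 : c₀ ^ 4 = -1 := by
    have h8 : (c₀ ^ 4) ^ 2 = 1 := by rw [← pow_mul, show 4 * 2 = orderOf c₀ from ho.symm]; exact pow_orderOf_eq_one _
    exact (sq_eq_one_iff.mp h8).resolve_left (pow_ne_one_of_lt_orderOf (by norm_num) (by omega))
  have hs : (c₀ ^ 2 + 1 - 4 * c₀) * (c₀ ^ 2 + 1 + 4 * c₀) = 0 := by
    linear_combination h4 - 2 * c₀ ^ 2 * h70
  obtain ⟨c, hc, hoc, hq2⟩ : ∃ c ∈ cir σ, orderOf c = 8 ∧ c ^ 2 = 4 * c - 1 := by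
    rcases mul_eq_zero.mp hs with h | h
    · exact ⟨c₀, hc₀, ho, by linear_combination h⟩
    · refine ⟨c₀ ^ 5, pow_mem_cir hc₀ 5, ?_, ?_⟩
      · rw [orderOf_pow' _ (by norm_num), ho]; norm_num
      · rw [show c₀ ^ 5 = -c₀ by linear_combination c₀ * h4]; linear_combination h
  have hσc : σ c = 4 - c := by
    have h1 := mem_cir.mp hc
    refine mul_left_cancel₀ (ne_zero_of_mem_cir hc) ?_
    linear_combination h1 + hq2
  refine ⟨φ, c, hc, hoc, ?_, fun x y => ?_, fun x => ?_, fun k => ?_⟩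
  · have hinj : Function.Injective fun x : ZMod 7 × ZMod 7 => φ x.1 + φ x.2 * c := by
      intro x y h
      simp only at h
      by_cases h2 : x.2 = y.2
      · rw [h2, add_left_inj] at h
        exact Prod.ext (φ.injective h) h2
      · exfalso
        have hd : φ x.2 - φ y.2 ≠ 0 := sub_ne_zero.mpr (φ.injective.ne h2)
        have hfix : σ c = c := by
          have e1 := congrArg σ h
          simp only [map_add, map_mul, hφσ] at e1
          exact mul_left_cancel₀ hd (by linear_combination e1 - h)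
        have h1 : c ^ 2 = 1 := by
          have := mem_cir.mp hc
          rwa [hfix, ← pow_two] at this
        exact pow_ne_one_of_lt_orderOf (by norm_num) (by omega) h1
    have hb := (Fintype.bijective_iff_injective_and_card _).mpr ⟨hinj, by
      rw [Fintype.card_prod, ZMod.card, hσ.card, h7]; norm_num⟩
    exact hb.2
  · simp only [mm, map_add, map_sub, map_mul, map_ofNat]
    linear_combination -(φ x.2 * φ y.2) * hq2
  · simp only [nm, map_add, map_mul, map_ofNat, hφσ, hσc]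
    linear_combination -(φ x.2 * φ x.2) * hq2
  · fin_cases k <;> simp [pm, map_ofNat]
    · linear_combination h70
    · linear_combination -hq2 + h70
    · linear_combination -(c + 4) * hq2 + (1 - 2 * c) * h70
    · linear_combination -(c ^ 2 + 4 * c + 15) * hq2 + (3 - 8 * c) * h70
    · linear_combination -(c ^ 3 + 4 * c ^ 2 + 15 * c + 56) * hq2 + (9 - 29 * c) * h70
    · linear_combination -(c ^ 4 + 4 * c ^ 3 + 15 * c ^ 2 + 56 * c + 209) * hq2 +
        (30 - 111 * c) * h70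
    · linear_combination -(c ^ 5 + 4 * c ^ 4 + 15 * c ^ 3 + 56 * c ^ 2 + 209 * c + 780) * hq2 +
        (112 - 415 * c) * h70

/-- Over the field with forty-nine elements some non-monomial element has a zero entry. -/
lemma zero_of_seven {X : Subgroup (GL ι F)} (hσ : IsConj σ q) (h7 : q = 7)
    (hn : Fintype.card ι = 8) (hX : X ≤ GUs σ) (hM : MonIn σ X) {g : GL ι F} (hg : g ∈ X)
    (h0 : ∀ j a, ap g e[j] a ≠ 0) {j k : ι} (hjk : j ≠ k) :
    ∃ g' ∈ X, ¬ IsMon g' ∧ ∃ j a, ap g' e[j] a = 0 := by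
  obtain ⟨φ, c, hc, ho, hsurj, hmm, hnm, hpm⟩ := exists_coordinates hσ h7
  by_contra hcon
  set a : ι → F := fun x => ap g e[j] x * σ (ap g e[k] x) with ha
  have ha0 : ∀ x, a x ≠ 0 := fun x => mul_ne_zero (h0 j x) ((map_ne_zero σ).mpr (h0 k x))
  have : Fact (Nat.Prime 7) := ⟨by norm_num⟩
  -- weighted quadruples
  have key : ∀ l : Fin 4 → ι, Function.Injective l → ∀ e₀ e₁ e₂ e₃ : Fin 8,
      e₀ + e₁ + e₂ + e₃ = 0 → mixed e₀ e₁ e₂ e₃ = true →
      a (l 0) * (c ^ (e₀ : ℕ) - 1) + a (l 1) * (c ^ (e₁ : ℕ) - 1) +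
        a (l 2) * (c ^ (e₂ : ℕ) - 1) + a (l 3) * (c ^ (e₃ : ℕ) - 1) = 0 → False := by
    intro l hl e₀ e₁ e₂ e₃ hsum hmix hzero
    have hc8 : ∀ n : ℕ, c ^ n = 1 ↔ n % 8 = 0 := fun n => by
      rw [← orderOf_dvd_iff_pow_eq_one, ho, Nat.dvd_iff_mod_eq_zero]
    have hpow : ∀ (x m : Fin 8), (c ^ (x : ℕ)) ^ (m : ℕ) = 1 ↔ x * m = 0 := fun x m => by
      rw [← pow_mul, hc8, Fin.ext_iff, Fin.val_mul]; rfl
    obtain ⟨m, -, hm, hm'⟩ : ∃ m : Fin 8, m ∈ [1, 2, 4] ∧
        (∃ i : Fin 4, ![e₀, e₁, e₂, e₃] i * m ≠ 0) ∧ ∃ i : Fin 4, ![e₀, e₁, e₂, e₃] i * m = 0 := by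
      obtain ⟨m, hm, hmix⟩ := List.any_eq_true.mp hmix
      simp only [Bool.and_eq_true, List.any_eq_true, decide_eq_true_eq] at hmix
      have hi : ∀ x ∈ [e₀, e₁, e₂, e₃], ∃ i : Fin 4, ![e₀, e₁, e₂, e₃] i = x := by
        intro x hx
        simp only [List.mem_cons, List.not_mem_nil, or_false] at hx
        rcases hx with h | h | h | h <;> [use 0; use 1; use 2; use 3] <;> simp [h]
      obtain ⟨⟨x, hx, hxm⟩, y, hy, hym⟩ := hmix
      obtain ⟨i, rfl⟩ := hi x hx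
      obtain ⟨i', rfl⟩ := hi y hy
      exact ⟨m, hm, ⟨i, hxm⟩, i', hym⟩
    obtain ⟨i, hi⟩ := hm
    obtain ⟨i', hi'⟩ := hm'
    refine hcon (zero_of_four (by omega) hX hM hg h0 hjk hl
      (w := fun i => c ^ ((![e₀, e₁, e₂, e₃] i : Fin 8) : ℕ)) (fun i => pow_mem_cir hc _) ?_ ?_
      (m : ℕ) ⟨i, fun h => hi ((hpow _ _).mp h)⟩ ⟨i', (hpow _ _).mpr hi'⟩)
    · simp only [Fin.prod_univ_four]
      rw [← pow_add, ← pow_add, ← pow_add, hc8]
      simpa [Fin.ext_iff, Fin.val_add] using hsum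
    · simpa [Fin.sum_univ_four] using hzero
  -- norms
  choose co hco using fun x => hsurj (a x)
  let N : ι → Fin 7 := fun x => (nm (co x) : ZMod 7)
  have hN : ∀ x, φ (asZ (N x)) = a x * σ (a x) := fun x => by
    rw [← hco x]; exact (hnm _).symm
  have hN0 : ∀ x, N x ≠ 0 := fun x h => by
    have := hN x
    rw [h] at this
    exact mul_ne_zero (ha0 x) ((map_ne_zero σ).mpr (ha0 x)) (this.symm.trans (map_zero φ))
  have hclass : ∀ x y, N x = N y → a x = a y := fun x y h => by_contra fun hne =>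
    hcon (zero_of_pair (by omega) hX hM hg h0 hjk hne ((hN x).symm.trans ((congrArg φ h).trans (hN y))))
  -- the ratio of two values
  have hratio : ∀ x y, ∃ R : ZMod 7 × ZMod 7, a y = a x * (φ R.1 + φ R.2 * c) ∧
      nm R * asZ (N x) = asZ (N y) := fun x y => by
    obtain ⟨R, hR⟩ := hsurj (a y / a x)
    have e : a y = a x * (φ R.1 + φ R.2 * c) := by rw [hR, mul_div_cancel₀ _ (ha0 x)]
    refine ⟨R, e, φ.injective ?_⟩
    rw [map_mul, ← hnm, hN, hN, e, map_mul σ (a x)]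
    ring
  set m : Fin 7 → ℕ := fun v => (univ.filter fun x => N x = v).card with hm
  by_cases h4 : ∃ v, 4 ≤ m v
  · obtain ⟨v, hv⟩ := h4
    obtain ⟨Q, hQ, hQ4⟩ := exists_subset_card_eq hv
    let eQ := Q.equivFinOfCardEq hQ4
    have hla : ∀ i, a (eQ.symm i : ι) = a (eQ.symm 0 : ι) := fun i => hclass _ _ (by
      have h1 := hQ (eQ.symm i).2
      have h2 := hQ (eQ.symm 0).2
      simp only [mem_filter, mem_univ, true_and] at h1 h2
      exact h1.trans h2.symm)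
    refine key (fun i => (eQ.symm i : ι)) (fun i i' h => eQ.symm.injective (Subtype.ext h))
      1 2 6 7 (by decide) (by decide) ?_
    simp only [hla 1, hla 2, hla 3, ← hpm, ← mul_add]
    simp [pm, map_ofNat]
    right
    have h70 : (7 : F) = 0 := by
      have := map_ofNat φ 7
      rwa [show (7 : ZMod 7) = 0 from rfl, map_zero, eq_comm] at this
    linear_combination (2 + 2 * c) * h70
  push Not at h4
  have hsum : m 1 + m 2 + m 3 + m 4 + m 5 + m 6 = 8 := by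
    have e := card_eq_sum_card_fiberwise (s := (univ : Finset ι)) (t := (univ : Finset (Fin 7)))
      (f := N) fun _ _ => mem_univ _
    have h00 : m 0 = 0 := card_eq_zero.mpr (filter_eq_empty_iff.mpr fun x _ => hN0 x)
    rw [card_univ, hn, Fin.sum_univ_seven] at e
    simp only [hm] at h00 ⊢
    omega
  obtain ⟨v, hv0, hpat⟩ := exists_pattern ⟨m 1, h4 1⟩ ⟨m 2, h4 2⟩ ⟨m 3, h4 3⟩ ⟨m 4, h4 4⟩
    ⟨m 5, h4 5⟩ ⟨m 6, h4 6⟩ hsum
  have hval : ∀ w : Fin 7, w ≠ 0 → ((![0, ⟨m 1, h4 1⟩, ⟨m 2, h4 2⟩, ⟨m 3, h4 3⟩, ⟨m 4, h4 4⟩,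
      ⟨m 5, h4 5⟩, ⟨m 6, h4 6⟩] : Fin 7 → Fin 4) w : ℕ) = m w := fun w hw => by
    fin_cases w <;> first | (exact absurd rfl hw) | rfl
  have hmul : ∀ {x y : ι} {R : ZMod 7 × ZMod 7} {ν : Fin 7},
      nm R * asZ (N x) = asZ (N y) → N x = v → N y = ν * v → nm R = asZ ν := by
    intro x y R ν h1 hx hy
    rw [hx, hy] at h1
    exact mul_right_cancel₀ (show asZ v ≠ 0 from hv0) h1
  have hne : ∀ ν : Fin 7, ν = 2 ∨ ν = 5 ∨ ν = 6 → ν * v ≠ v ∧ ν * v ≠ 0 := by
    intro ν h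
    have key' : ∀ v ν : Fin 7, v ≠ 0 → ν = 2 ∨ ν = 5 ∨ ν = 6 → ν * v ≠ v ∧ ν * v ≠ 0 := by decide
    exact key' v ν hv0 h
  rcases hpat with ⟨h2, h1⟩ | ⟨h3, ν, hν, h1⟩
  · rw [hval v hv0] at h2
    rw [hval _ (hne 5 (by simp)).2] at h1
    obtain ⟨x, hx, x', hx', hxx⟩ := one_lt_card.mp h2
    obtain ⟨y, hy⟩ := card_pos.mp h1
    simp only [mem_filter, mem_univ, true_and] at hx hx' hy
    have hxy : ∀ {z}, N z = v → z ≠ y := fun hz e => (hne 5 (by simp)).1 (by rw [← hy, ← e, hz])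
    obtain ⟨w, -, hw⟩ := exists_mem_notMem_of_card_lt_card (t := (univ : Finset ι))
      (s := {x, x', y}) (lt_of_le_of_lt card_le_three (by rw [card_univ]; omega))
    simp only [mem_insert, mem_singleton, not_or] at hw
    obtain ⟨R, hR, hRn⟩ := hratio x y
    obtain ⟨e₀, e₁, heq, hmix⟩ := exists_weight_pair R.1 R.2 (hmul hRn hx hy)
    refine key ![x, x', y, w] ?_ e₀ e₁ (-(e₀ + e₁)) 0 (by simp) hmix ?_
    · intro i i'
      fin_cases i <;> fin_cases i' <;>
        simp [hxx, hxx.symm, hxy hx, hxy hx', (hxy hx).symm, (hxy hx').symm, hw.1, hw.2.1, hw.2.2,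
          Ne.symm hw.1, Ne.symm hw.2.1, Ne.symm hw.2.2]
    · simp only [Matrix.cons_val, Fin.coe_ofNat_eq_mod, Nat.zero_mod, pow_zero, sub_self, mul_zero,
        add_zero]
      rw [← hclass x x' (hx.trans hx'.symm), hR, ← hpm, ← hpm, ← hpm]
      have h1 := congrArg (fun z => φ z.1 + φ z.2 * c) heq
      simp only [Prod.fst_add, Prod.snd_add, map_add, map_zero, zero_mul, add_zero] at h1
      simp only [Prod.mk.eta] at h1
      linear_combination (a x) * h1 - (a x) * hmm R (pm (-(e₀ + e₁)))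
  · rw [hval v hv0] at h3
    rw [hval _ (hne ν hν).2] at h1
    obtain ⟨x, x', x'', hx, hx', hx'', hxx, hxx', hxx''⟩ := two_lt_card_iff.mp h3
    obtain ⟨y, hy⟩ := card_pos.mp h1
    simp only [mem_filter, mem_univ, true_and] at hx hx' hx'' hy
    have hxy : ∀ {z}, N z = v → z ≠ y := fun hz e => (hne ν hν).1 (by rw [← hy, ← e, hz])
    obtain ⟨R, hR, hRn⟩ := hratio x y
    obtain ⟨e₀, e₁, e₂, heq, hmix⟩ := exists_weight_triple R.1 R.2 (by
      rw [Prod.mk.eta, hmul hRn hx hy]; exact hν)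
    refine key ![x, x', x'', y] ?_ e₀ e₁ e₂ (-(e₀ + e₁ + e₂)) (by simp) hmix ?_
    · intro i i'
      fin_cases i <;> fin_cases i' <;>
        simp [hxx, hxx.symm, hxx', hxx'.symm, hxx'', hxx''.symm, hxy hx, hxy hx', hxy hx'',
          (hxy hx).symm, (hxy hx').symm, (hxy hx'').symm]
    · simp only [Matrix.cons_val]
      rw [← hclass x x' (hx.trans hx'.symm), ← hclass x x'' (hx.trans hx''.symm), hR, ← hpm, ← hpm,
        ← hpm, ← hpm]
      have h1 := congrArg (fun z => φ z.1 + φ z.2 * c) heq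
      simp only [Prod.fst_add, Prod.snd_add, map_add, map_zero, zero_mul, add_zero] at h1
      simp only [Prod.mk.eta] at h1
      linear_combination (a x) * h1 - (a x) * hmm R (pm (-(e₀ + e₁ + e₂)))

end CfsgLib.SUEight
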