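import Cfsg.Agent.Lib.Geometric.SUTypes
import Cfsg.Agent.Lib.Geometric.UnitaryOrthSubfieldEight

/-!
Geometric maximal subgroups of the special unitary group of dimension eight, other than frames and
symplectic type normalisers.
-/

set_option autoImplicit false

namespace CfsgLib.Geometric.SUEight

open CfsgLib.Geometric

variable {F : Type*} [Field F] [Fintype F] {n q : ℕ}

/-- Orthogonal subfield subgroups. -/
theorem subfieldOrth (hF : Fintype.card F = q ^ 2) (hn : 8 ≤ n) (hodd : Odd q) {F₀ : Subfield F}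
    (hcard : Fintype.card F = Nat.card F₀ ^ 2) {P : Matrix.GeneralLinearGroup (Fin n) F}
    (hP : Cfsg.Geo.IsFormRationalStructure (Cfsg.hermForm n F q) F₀ 1 P) :
    Cfsg.Geo.IsMaximalIn (Cfsg.GU n F q ⊓ Cfsg.Geo.specialLinear (Fin n) F) (Cfsg.Geo.subfieldSubgroup F₀ P ⊓ (Cfsg.GU n F q ⊓ Cfsg.Geo.specialLinear (Fin n) F)) := by
  classical
  obtain ⟨σ, hσ, hh⟩ := CfsgLib.Geometric.isUnitaryForm_hermForm (F := F) n q hF
  have hq : Nat.card F₀ = q :=
    (Nat.pow_left_injective two_ne_zero (hF ▸ hcard : q ^ 2 = Nat.card F₀ ^ 2)).symm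
  have hq1 : 1 < q := hq ▸ Finite.one_lt_card
  have hsub : ∀ x ∈ F₀, x ^ q = x := fun x hx => by
    have : Fintype F₀ := Fintype.ofFinite F₀
    have hp := congrArg Subtype.val (FiniteField.pow_card (⟨x, hx⟩ : F₀))
    rw [← hq, Nat.card_eq_fintype_card]
    simpa using hp
  have h0 : (Polynomial.X ^ q - Polynomial.X : Polynomial F) ≠ 0 :=
    FiniteField.X_pow_card_sub_X_ne_zero F hq1
  have hroots : (Finset.univ.filter fun x : F => x ^ q = x).card ≤ q := by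
    calc _ ≤ (Polynomial.X ^ q - Polynomial.X : Polynomial F).roots.toFinset.card :=
          Finset.card_le_card fun x hx => by
            simp only [Finset.mem_filter, Finset.mem_univ, true_and] at hx
            rw [Multiset.mem_toFinset, Polynomial.mem_roots h0]
            simp [hx]
      _ ≤ _ := le_trans (Multiset.toFinset_card_le _) (le_trans (Polynomial.card_roots' _)
          (le_of_eq (FiniteField.X_pow_card_sub_X_natDegree_eq F hq1)))
  have heq : (Finset.univ.filter fun x => x ∈ F₀) = (Finset.univ.filter fun x : F => x ^ q = x) :=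
    Finset.eq_of_subset_of_card_le (fun x hx => by
      simp only [Finset.mem_filter, Finset.mem_univ, true_and] at hx ⊢
      exact hsub x hx) (le_trans hroots (le_of_eq (by
        rw [← hq, Nat.card_eq_fintype_card, Fintype.card_subtype])))
  have h2 : (2 : F) ≠ 0 := by
    intro h
    have h' : ringChar F = 2 := CharP.ringChar_of_prime_eq_zero Nat.prime_two (by exact_mod_cast h)
    have := FiniteField.even_card_of_char_two h'
    rw [hF] at this
    exact Nat.not_even_iff_odd.2 (hodd.pow (n := 2)) (Nat.even_iff.2 this)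
  refine CfsgLib.Geometric.UOSubfldEight.isMaximalIn' (σ := σ) (by simp; omega) hh h2 (fun x => ?_) hP
  rw [hσ]
  have := Finset.ext_iff.1 heq x
  simp only [Finset.mem_filter, Finset.mem_univ, true_and] at this
  exact this.symm

/-- Stabilisers of totally isotropic subspaces. -/
theorem item1 (hF : Fintype.card F = q ^ 2) : ∀ W : Submodule F (Fin 8 → F), W ≠ ⊥ → Cfsg.Geo.IsTotallySingularFor (Cfsg.hermForm 8 F q) W → Cfsg.Geo.IsMaximalIn (Cfsg.GU 8 F q ⊓ Cfsg.Geo.specialLinear (Fin 8) F) (Cfsg.Geo.subspaceStabilizer W ⊓ (Cfsg.GU 8 F q ⊓ Cfsg.Geo.specialLinear (Fin 8) F)) :=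
  fun W h0 hW => SUTypes.totallySingular hF (by omega) h0 hW

/-- Stabilisers of non-degenerate subspaces. -/
theorem item2 (hF : Fintype.card F = q ^ 2) : ∀ W : Submodule F (Fin 8 → F), W ≠ ⊥ → Cfsg.Geo.IsNondegenerateOn (Cfsg.hermForm 8 F q) W → 2 * Module.finrank F W < 8 → Cfsg.Geo.IsMaximalIn (Cfsg.GU 8 F q ⊓ Cfsg.Geo.specialLinear (Fin 8) F) (Cfsg.Geo.subspaceStabilizer W ⊓ (Cfsg.GU 8 F q ⊓ Cfsg.Geo.specialLinear (Fin 8) F)) :=
  fun W h0 hW hd => SUTypes.nondegenerate hF (by omega) h0 hW hd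

/-- Stabilisers of decompositions into planes. -/
theorem item4 (hF : Fintype.card F = q ^ 2) : 3 ≤ q → ∀ D : Fin 4 → Submodule F (Fin 8 → F), Cfsg.Geo.IsNondegenerateMDecomposition (Cfsg.hermForm 8 F q) 2 D → Cfsg.Geo.IsMaximalIn (Cfsg.GU 8 F q ⊓ Cfsg.Geo.specialLinear (Fin 8) F) (Cfsg.Geo.decompositionStabilizer D ⊓ (Cfsg.GU 8 F q ⊓ Cfsg.Geo.specialLinear (Fin 8) F)) :=
  fun hq D hD => SUTypes.decomp hF (by omega) hD (by omega) fun _ => hq

/-- Stabilisers of decompositions into two solids. -/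
theorem item5 (hF : Fintype.card F = q ^ 2) : ∀ D : Fin 2 → Submodule F (Fin 8 → F), Cfsg.Geo.IsNondegenerateMDecomposition (Cfsg.hermForm 8 F q) 4 D → Cfsg.Geo.IsMaximalIn (Cfsg.GU 8 F q ⊓ Cfsg.Geo.specialLinear (Fin 8) F) (Cfsg.Geo.decompositionStabilizer D ⊓ (Cfsg.GU 8 F q ⊓ Cfsg.Geo.specialLinear (Fin 8) F)) :=
  fun D hD => SUTypes.decomp hF (by omega) hD (by omega) (by omega)

/-- Stabilisers of pairs of totally isotropic solids. -/
theorem item6 (hF : Fintype.card F = q ^ 2) : ∀ D : Fin 2 → Submodule F (Fin 8 → F), Cfsg.Geo.IsMDecomposition 4 D → (∀ i, Cfsg.Geo.IsTotallySingularFor (Cfsg.hermForm 8 F q) (D i)) → Cfsg.Geo.IsMaximalIn (Cfsg.GU 8 F q ⊓ Cfsg.Geo.specialLinear (Fin 8) F) (Cfsg.Geo.decompositionStabilizer D ⊓ (Cfsg.GU 8 F q ⊓ Cfsg.Geo.specialLinear (Fin 8) F)) :=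
  fun D hD hts => SUTypes.pair hF (by omega) hD hts

/-- Stabilisers of tensor decompositions. -/
theorem item7 (hF : Fintype.card F = q ^ 2) : 3 ≤ q → ∀ (e : Fin 8 ≃ Fin 2 × Fin 4) (P : Matrix.GeneralLinearGroup (Fin 8) F) (f₁ : (Fin 2 → F) → (Fin 2 → F) → F) (f₂ : (Fin 4 → F) → (Fin 4 → F) → F), Cfsg.Geo.IsUnitaryFormPow q f₁ → Cfsg.Geo.IsUnitaryFormPow q f₂ → Cfsg.Geo.IsTensorFormStructure (fun x : F => x ^ q) (Cfsg.hermForm 8 F q) f₁ f₂ e P → Cfsg.Geo.IsMaximalIn (Cfsg.GU 8 F q ⊓ Cfsg.Geo.specialLinear (Fin 8) F) (Cfsg.Geo.tensorProductSubgroup 2 4 e P ⊓ (Cfsg.GU 8 F q ⊓ Cfsg.Geo.specialLinear (Fin 8) F)) :=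
  fun hq e P f₁ f₂ hf₁ hf₂ hT =>
    SUTypes.tensor hF le_rfl (by omega) (by omega) (by omega) (by omega) e P hf₁ hf₂ hT

/-- Subfield groups of odd index. -/
theorem item8 (hF : Fintype.card F = q ^ 2) : ∀ (F₀ : Subfield F) (r : ℕ) (P : Matrix.GeneralLinearGroup (Fin 8) F), r.Prime → Odd r → Fintype.card F = Nat.card F₀ ^ r → Cfsg.Geo.IsFormRationalStructure (Cfsg.hermForm 8 F q) F₀ 1 P → Cfsg.Geo.IsMaximalIn (Cfsg.GU 8 F q ⊓ Cfsg.Geo.specialLinear (Fin 8) F) (Cfsg.Geo.subfieldSubgroup F₀ P ⊓ (Cfsg.GU 8 F q ⊓ Cfsg.Geo.specialLinear (Fin 8) F)) :=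
  fun F₀ r P hr hro hcard hP => SUTypes.subfieldOdd hF (by omega) hr hro hcard hP

/-- Symplectic subfield groups. -/
theorem item9 (hF : Fintype.card F = q ^ 2) : ∀ (F₀ : Subfield F) (P : Matrix.GeneralLinearGroup (Fin 8) F) (ζ : F), Fintype.card F = Nat.card F₀ ^ 2 → ζ ≠ 0 → ζ + ζ ^ q = 0 → Cfsg.Geo.IsFormRationalStructure (Cfsg.hermForm 8 F q) F₀ ζ P → (∀ u : Fin 8 → F, (∀ i, u i ∈ F₀) → (Cfsg.hermForm 8 F q) (Matrix.mulVec (P : Matrix (Fin 8) (Fin 8) F) u) (Matrix.mulVec (P : Matrix (Fin 8) (Fin 8) F) u) = 0) → Cfsg.Geo.IsMaximalIn (Cfsg.GU 8 F q ⊓ Cfsg.Geo.specialLinear (Fin 8) F) (Cfsg.Geo.subfieldSubgroup F₀ P ⊓ (Cfsg.GU 8 F q ⊓ Cfsg.Geo.specialLinear (Fin 8) F)) :=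
  fun F₀ P ζ hcard hζ0 hζ hP halt => SUTypes.subfieldSymp hF (by omega) hcard hζ0 hζ hP halt

/-- Orthogonal subfield groups. -/
theorem item10 (hF : Fintype.card F = q ^ 2) : Odd q → ∀ (F₀ : Subfield F) (P : Matrix.GeneralLinearGroup (Fin 8) F), Fintype.card F = Nat.card F₀ ^ 2 → Cfsg.Geo.IsFormRationalStructure (Cfsg.hermForm 8 F q) F₀ 1 P → Cfsg.Geo.IsMaximalIn (Cfsg.GU 8 F q ⊓ Cfsg.Geo.specialLinear (Fin 8) F) (Cfsg.Geo.subfieldSubgroup F₀ P ⊓ (Cfsg.GU 8 F q ⊓ Cfsg.Geo.specialLinear (Fin 8) F)) :=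
  fun hodd F₀ P hcard hP => subfieldOrth hF (by omega) hodd hcard hP

end CfsgLib.Geometric.SUEight
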